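import Cfsg.Agent.Fus.PSLUnip
import Cfsg.Agent.Fus.MathieuCriterion

set_option autoImplicit false
set_option maxHeartbeats 400000

/-! The `p`-fusion system of `PSL(n,K)`, `n ≥ 3`, `K` of characteristic `p`, is simple. -/

namespace Cfsg.Agent.Fus.Unip

open Cfsg Cfsg.FusionSystem Matrix Cfsg.Agent.Fus

variable {n : ℕ} {K : Type*} [Field K] [Fintype K] {p : ℕ} [hp : Fact p.Prime] [hc : CharP K p]
  {G : Type*} [Group G]

local notation "SLn" => SpecialLinearGroup (Fin n) K

/-- A surjection from `SL(n,K)` with kernel the centre. -/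
structure IsPSLMap (φ : SLn →* G) : Prop where
  surj : Function.Surjective φ
  ker : φ.ker = Subgroup.center SLn

/-- Radical of the minimal parabolic attached to `(a,b)`. -/
def rad (a b : Fin n) (hb : (b : ℕ) = a + 1) : Subgroup SLn where
  carrier := {g | g ∈ uni n K ∧ (g : Matrix (Fin n) (Fin n) K) a b = 0}
  one_mem' := ⟨(uni n K).one_mem, by
    rw [cone, Matrix.one_apply_ne]; intro h; rw [h] at hb; omega⟩
  mul_mem' {g h} hg hh := ⟨(uni n K).mul_mem hg.1 hh.1, by
    have hab : a ≠ b := fun h' => by rw [h'] at hb; omega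
    rw [cmul, Matrix.mul_apply, Finset.sum_eq_add_of_mem a b (Finset.mem_univ _) (Finset.mem_univ _) hab]
    · rw [hg.2, hh.2, mul_zero, zero_mul, add_zero]
    · intro s _ hs
      rcases lt_or_ge s a with h1 | h1
      · rw [hg.1.1 a s h1, zero_mul]
      · have hbs : b < s := by
          have h2 := Fin.val_ne_of_ne hs.1
          have h3 := Fin.val_ne_of_ne hs.2
          rw [Fin.le_def] at h1; rw [Fin.lt_def]; omega
        rw [hh.1.1 s b hbs, mul_zero]⟩
  inv_mem' {g} hg := by
    refine ⟨(uni n K).inv_mem hg.1, ?_⟩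
    have hab : a ≠ b := fun h' => by rw [h'] at hb; omega
    have hlt : a < b := by rw [Fin.lt_def]; omega
    have hinv : g⁻¹ ∈ uni n K := (uni n K).inv_mem hg.1
    have h1 := congrArg (fun m : SLn => (m : Matrix (Fin n) (Fin n) K) a b) (mul_inv_cancel g)
    simp only [cmul, cone, Matrix.one_apply_ne hab] at h1
    rw [Matrix.mul_apply, Finset.sum_eq_add_of_mem a b (Finset.mem_univ _) (Finset.mem_univ _) hab,
      hg.2, hg.1.2, one_mul, zero_mul, add_zero] at h1
    · exact h1
    · intro s _ hs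
      rcases lt_or_ge s a with h2 | h2
      · rw [hg.1.1 a s h2, zero_mul]
      · have hbs : b < s := by
          have h3 := Fin.val_ne_of_ne hs.1
          have h4 := Fin.val_ne_of_ne hs.2
          rw [Fin.le_def] at h2; rw [Fin.lt_def]; omega
        rw [hinv.1 s b hbs, mul_zero]

theorem rad_le (a b : Fin n) (hb : (b : ℕ) = a + 1) : rad (K := K) a b hb ≤ uni n K := fun _ h => h.1

theorem tv_mem_rad {a b : Fin n} {hb : (b : ℕ) = a + 1} {i j : Fin n} (hij : i < j) (hne : ¬ (i = a ∧ j = b))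
    (c : K) : SpecialLinearGroup.transvection hij.ne c ∈ rad (K := K) a b hb := by
  refine ⟨tv_mem_uni hij c, ?_⟩
  have hab : a ≠ b := fun h' => by rw [h'] at hb; omega
  rw [ctv, Matrix.add_apply, Matrix.one_apply_ne hab, Matrix.single_apply, if_neg hne, add_zero]

theorem conj_tri_rad {a b : Fin n} {hb : (b : ℕ) = a + 1} {g v : SLn} (hg : g ∈ uni n K)
    (hv : v ∈ rad (K := K) a b hb) : g * v * g⁻¹ ∈ rad (K := K) a b hb := by
  have hab : a ≠ b := fun h' => by rw [h'] at hb; omega
  refine ⟨(uni n K).mul_mem ((uni n K).mul_mem hg hv.1) ((uni n K).inv_mem hg), ?_⟩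
  have key : ∀ x y : SLn, x ∈ uni n K → y ∈ uni n K → (((x * y : SLn)) : Matrix (Fin n) (Fin n) K) a b =
      (x : Matrix (Fin n) (Fin n) K) a b + (y : Matrix (Fin n) (Fin n) K) a b := by
    intro x y hx hy
    rw [cmul, Matrix.mul_apply, Finset.sum_eq_add_of_mem a b (Finset.mem_univ _) (Finset.mem_univ _) hab,
      hx.2, hy.2, one_mul, mul_one, add_comm]
    intro s _ hs
    rcases lt_or_ge s a with h2 | h2
    · rw [hx.1 a s h2, zero_mul]
    · have hbs : b < s := by
        have h3 := Fin.val_ne_of_ne hs.1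
        have h4 := Fin.val_ne_of_ne hs.2
        rw [Fin.le_def] at h2; rw [Fin.lt_def]; omega
      rw [hy.1 s b hbs, mul_zero]
  rw [key _ _ ((uni n K).mul_mem hg hv.1) ((uni n K).inv_mem hg), key _ _ hg hv.1, hv.2, add_zero,
    ← key _ _ hg ((uni n K).inv_mem hg), mul_inv_cancel, cone, Matrix.one_apply_ne hab]

theorem conj_lower_rad {a b : Fin n} {hb : (b : ℕ) = a + 1} (hab : b ≠ a) (t : K) {v : SLn}
    (hv : v ∈ rad (K := K) a b hb) :
    SpecialLinearGroup.transvection hab t * v * SpecialLinearGroup.transvection hab (-t) ∈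
      rad (K := K) a b hb := by
  obtain ⟨⟨hut, hdi⟩, h0⟩ := hv
  set m := SpecialLinearGroup.transvection hab t * v * SpecialLinearGroup.transvection hab (-t) with hm
  have hent : ∀ r s, (m : Matrix (Fin n) (Fin n) K) r s = (v : Matrix (Fin n) (Fin n) K) r s +
      (if r = b then t * (v : Matrix (Fin n) (Fin n) K) a s else 0) +
      if s = a then (v : Matrix (Fin n) (Fin n) K) r b * (-t) else 0 := by
    intro r s
    rw [hm, mul_tv_apply, tv_left_apply, tv_left_apply, h0, mul_zero, ite_self, add_zero]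
  have hlt : a < b := by rw [Fin.lt_def]; omega
  refine ⟨⟨fun r s hsr => ?_, fun r => ?_⟩, ?_⟩
  · rw [hent, hut r s hsr, zero_add]
    by_cases hr : r = b
    · subst hr
      rw [if_pos rfl, hdi]
      by_cases hs : s = a
      · rw [if_pos hs, hs, hdi, mul_one, one_mul, add_neg_cancel]
      · rw [if_neg hs, add_zero, hut a s, mul_zero]
        rw [Fin.lt_def] at hsr ⊢
        have := Fin.val_ne_of_ne hs
        omega
    · rw [if_neg hr, zero_add]
      split_ifs with hs
      · subst hs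
        rw [hut r b, zero_mul]
        rw [Fin.lt_def] at hsr ⊢
        have := Fin.val_ne_of_ne hr
        omega
      · rfl
  · rw [hent, hdi]
    by_cases hr : r = b
    · subst hr; rw [if_pos rfl, h0, mul_zero, add_zero, if_neg hab, add_zero]
    · rw [if_neg hr, add_zero]
      split_ifs with h1
      · subst h1; rw [h0, zero_mul, add_zero]
      · rw [add_zero]
  · rw [hent, h0, if_neg hab.symm, if_neg hab, zero_add, zero_add]

theorem tv_pow {i j : Fin n} (hij : i ≠ j) (c : K) :
    ∀ m : ℕ, SpecialLinearGroup.transvection hij c ^ m = SpecialLinearGroup.transvection hij ((m : K) * c)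
  | 0 => by rw [pow_zero, Nat.cast_zero, zero_mul, SpecialLinearGroup.transvection_coeff_zero]
  | m + 1 => by
    rw [pow_succ, tv_pow hij c m, ← SpecialLinearGroup.transvection_add, Nat.cast_succ, add_mul, one_mul]

include hp hc in
theorem tv_pow_char {i j : Fin n} (hij : i ≠ j) (c : K) : SpecialLinearGroup.transvection hij c ^ p = 1 := by
  rw [tv_pow, CharP.cast_eq_zero, zero_mul, SpecialLinearGroup.transvection_coeff_zero]

include hp hc in
theorem lift_unique {φ : SLn →* G} (hφ : IsPSLMap φ) {u v : SLn} (hu : u ∈ uni n K) (hv : v ∈ uni n K)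
    {g : SLn} (h : φ (g * u * g⁻¹) = φ v) : g * u * g⁻¹ = v := by
  have hz : (g * u * g⁻¹) * v⁻¹ ∈ Subgroup.center SLn := by
    rw [← hφ.ker, MonoidHom.mem_ker, map_mul, h, map_inv, mul_inv_cancel]
  have := center_eq_one (p := p) hu hv hz (inv_mul_cancel_right _ _).symm
  exact mul_inv_eq_one.1 this

include hp hc in
theorem exists_lift {φ : SLn →* G} (hφ : IsPSLMap φ) {u g : SLn} (hu : u ∈ uni n K)
    (h : φ g * φ u * (φ g)⁻¹ ∈ (uni n K).map φ) : g * u * g⁻¹ ∈ uni n K := by
  obtain ⟨v, hv, hvx⟩ := h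
  rw [lift_unique (p := p) hφ hu hv (g := g) (by rw [map_mul, map_mul, map_inv, hvx])]
  exact hv

theorem diag_eq_scalar {g : SLn} (hn : 0 < n) (hg : g ∈ tri n K)
    (hd : ∀ i j, (g : Matrix (Fin n) (Fin n) K) i i = (g : Matrix (Fin n) (Fin n) K) j j) :
    ∃ z ∈ Subgroup.center SLn, z * g ∈ uni n K ∧ ∃ s : K, s * (g : Matrix (Fin n) (Fin n) K) ⟨0, hn⟩ ⟨0, hn⟩ = 1 ∧
      ∀ i j, ((z * g : SLn) : Matrix (Fin n) (Fin n) K) i j = s * (g : Matrix (Fin n) (Fin n) K) i j := by
  set d := (g : Matrix (Fin n) (Fin n) K) ⟨0, hn⟩ ⟨0, hn⟩ with hdd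
  have hdet : d ^ n = 1 := by
    have h1 : (g : Matrix (Fin n) (Fin n) K).det = 1 := g.2
    rw [Matrix.det_of_upperTriangular (fun i j hij => hg i j hij)] at h1
    rw [Finset.prod_congr rfl (fun i _ => hd i ⟨0, hn⟩), Finset.prod_const, Finset.card_univ, Fintype.card_fin] at h1
    exact h1
  have hd0 : d ≠ 0 := fun h => by rw [h, zero_pow hn.ne'] at hdet; exact zero_ne_one hdet
  let z : SLn := ⟨Matrix.scalar (Fin n) d⁻¹, by
    rw [Matrix.scalar_apply, Matrix.det_diagonal, Finset.prod_const, Finset.card_univ, Fintype.card_fin,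
      inv_pow, hdet, inv_one]⟩
  have hent : ∀ i j, ((z * g : SLn) : Matrix (Fin n) (Fin n) K) i j = d⁻¹ * (g : Matrix (Fin n) (Fin n) K) i j := by
    intro i j
    rw [cmul]
    show (Matrix.scalar (Fin n) d⁻¹ * (g : Matrix (Fin n) (Fin n) K)) i j = _
    rw [Matrix.scalar_apply, Matrix.diagonal_mul]
  refine ⟨z, Matrix.SpecialLinearGroup.mem_center_iff.2 ⟨d⁻¹, by rw [Fintype.card_fin, inv_pow, hdet, inv_one], rfl⟩,
    ⟨fun i j hij => by rw [hent, hg i j hij, mul_zero], fun i => ?_⟩, d⁻¹, inv_mul_cancel₀ hd0, hent⟩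
  rw [hent, hd i ⟨0, hn⟩, ← hdd, inv_mul_cancel₀ hd0]

theorem map_center_mul {φ : SLn →* G} (hφ : IsPSLMap φ) {z : SLn} (hz : z ∈ Subgroup.center SLn) (g : SLn) :
    φ (z * g) = φ g := by
  rw [← hφ.ker, MonoidHom.mem_ker] at hz
  rw [map_mul, hz, one_mul]

include hp hc in
theorem mem_map_uni_of_pow {φ : SLn →* G} (hφ : IsPSLMap φ) (hn : 0 < n) {g : SLn} (hg : g ∈ tri n K) {k : ℕ}
    (hk : φ g ^ p ^ k = 1) : φ g ∈ (uni n K).map φ := by
  rw [← map_pow, ← MonoidHom.mem_ker, hφ.ker, Matrix.SpecialLinearGroup.mem_center_iff] at hk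
  obtain ⟨r, -, hr⟩ := hk
  rw [cpow] at hr
  have hd : ∀ i j, (g : Matrix (Fin n) (Fin n) K) i i = (g : Matrix (Fin n) (Fin n) K) j j := by
    intro i j
    refine eq_of_pow_char (p := p) k ?_
    rw [← (IsUT.pow hg (p ^ k)).2, ← (IsUT.pow hg (p ^ k)).2, ← hr]
    simp
  obtain ⟨z, hz, hzg, -⟩ := diag_eq_scalar hn hg hd
  exact ⟨z * g, hzg, map_center_mul hφ hz g⟩

include hp hc in
theorem isPGroup_map_uni (φ : SLn →* G) : IsPGroup p ((uni n K).map φ) := by
  rintro ⟨x, u, hu, rfl⟩
  obtain ⟨k, hk⟩ := pow_eq_one_of_uni (p := p) hu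
  refine ⟨k, Subtype.ext ?_⟩
  rw [SubmonoidClass.coe_pow, ← map_pow, hk, map_one]; rfl

include hp hc in
theorem sylow_eq {φ : SLn →* G} (hφ : IsPSLMap φ) (hn : 0 < n) [Finite G] :
    ∃ S : Sylow p G, (S : Subgroup G) = (uni n K).map φ := by
  refine ⟨⟨(uni n K).map φ, isPGroup_map_uni φ, fun {Q} hQ hle => ?_⟩, rfl⟩
  by_contra hne
  have hlt : (uni n K).map φ < Q := lt_of_le_of_ne hle (Ne.symm hne)
  obtain ⟨x, hx, hxn⟩ := SetLike.exists_of_lt (lt_normalizerIn' hQ hlt)
  obtain ⟨g, rfl⟩ := hφ.surj x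
  refine hxn ?_
  obtain ⟨k, hk⟩ := hQ ⟨φ g, hx.1⟩
  refine mem_map_uni_of_pow hφ hn (mem_tri_of_conj fun i j hij _ => ?_) (k := k) (congrArg Subtype.val hk)
  exact exists_lift (p := p) hφ (tv_mem_uni hij 1)
    ((Subgroup.mem_normalizer_iff.1 hx.2 _).1 ⟨_, tv_mem_uni hij 1, rfl⟩)

include hp hc in
theorem mem_map_rad_of_centralizer {φ : SLn →* G} (hφ : IsPSLMap φ) (hn : 3 ≤ n) {a b : Fin n}
    {hb : (b : ℕ) = a + 1} {x : G} (hx : x ∈ Subgroup.centralizer ((rad (K := K) a b hb).map φ : Set G)) :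
    x ∈ (rad (K := K) a b hb).map φ := by
  obtain ⟨g, rfl⟩ := hφ.surj x
  have hcomm : ∀ (i j : Fin n) (hij : i < j), ¬ (i = a ∧ j = b) →
      g * SpecialLinearGroup.transvection hij.ne 1 = SpecialLinearGroup.transvection hij.ne 1 * g := by
    intro i j hij hne
    have h1 := hx _ ⟨_, tv_mem_rad (hb := hb) hij hne 1, rfl⟩
    refine mul_inv_eq_iff_eq_mul.1 (lift_unique (p := p) hφ (tv_mem_uni hij 1) (tv_mem_uni hij 1) ?_)
    rw [map_mul, map_mul, map_inv, ← h1, mul_inv_cancel_right]
  have hent : ∀ (i j : Fin n) (hij : i < j), ¬ (i = a ∧ j = b) →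
      (∀ r, r ≠ i → (g : Matrix (Fin n) (Fin n) K) r i = 0) ∧
      (∀ s, s ≠ j → (g : Matrix (Fin n) (Fin n) K) j s = 0) ∧
      (g : Matrix (Fin n) (Fin n) K) i i = (g : Matrix (Fin n) (Fin n) K) j j := by
    intro i j hij hne
    have h1 : ∀ r s, (g : Matrix (Fin n) (Fin n) K) r s + (if s = j then (g : Matrix (Fin n) (Fin n) K) r i * 1 else 0) =
        (g : Matrix (Fin n) (Fin n) K) r s + if r = i then 1 * (g : Matrix (Fin n) (Fin n) K) j s else 0 := by
      intro r s
      rw [← mul_tv_apply hij.ne, ← tv_left_apply hij.ne, hcomm i j hij hne]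
    refine ⟨fun r hr => ?_, fun s hs => ?_, ?_⟩
    · have := h1 r j
      rwa [if_pos rfl, if_neg hr, add_right_inj, mul_one] at this
    · have := h1 i s
      rw [if_pos rfl, if_neg hs, add_right_inj, one_mul] at this
      exact this.symm
    · have := h1 i j
      rwa [if_pos rfl, if_pos rfl, add_right_inj, mul_one, one_mul] at this
  have hba : (a : ℕ) < (b : ℕ) := by omega
  have hz0 : ∀ r s : Fin n, r ≠ s → (s < r ∨ (r = a ∧ s = b)) → (g : Matrix (Fin n) (Fin n) K) r s = 0 := by
    intro r s hrs h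
    by_cases hcol : ∃ j, s < j ∧ ¬ (s = a ∧ j = b)
    · obtain ⟨j, hj, hne⟩ := hcol
      exact (hent s j hj hne).1 r hrs
    by_cases hrow : ∃ i, i < r ∧ ¬ (i = a ∧ r = b)
    · obtain ⟨i, hi, hne⟩ := hrow
      exact (hent i r hi hne).2.1 s hrs.symm
    exfalso
    push Not at hcol hrow
    rcases h with h | ⟨rfl, rfl⟩
    · -- `s < r`
      have h1 := hcol r h
      have h2 : ∀ j : Fin n, s < j → j = b := fun j hj => (hcol j hj).2
      have h3 : ∀ i : Fin n, i < r → i = a := fun i hi => (hrow i hi).1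
      rcases Nat.eq_zero_or_pos (a : ℕ) with h0 | h0
      · have h4 := h2 ⟨n - 1, by omega⟩ (by rw [h1.1, Fin.lt_def]; simp only; omega)
        have := congrArg Fin.val h4
        simp only at this
        omega
      · have h4 := h3 ⟨0, by omega⟩ (by rw [h1.2, Fin.lt_def]; simp only; omega)
        have := congrArg Fin.val h4
        simp only at this
        omega
    · rcases Nat.eq_zero_or_pos (r : ℕ) with h0 | h0
      · by_cases h2 : (s : ℕ) + 1 < n
        · obtain ⟨h5, -⟩ := hcol ⟨(s : ℕ) + 1, h2⟩ (by rw [Fin.lt_def]; simp)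
          exact hrs h5.symm
        · omega
      · obtain ⟨-, h5⟩ := hrow ⟨0, by omega⟩ (by rw [Fin.lt_def]; exact h0)
        exact hrs h5
  have hd : ∀ i j, (g : Matrix (Fin n) (Fin n) K) i i = (g : Matrix (Fin n) (Fin n) K) j j := by
    have step : ∀ i j : Fin n, i ≠ j → ¬ (i = a ∧ j = b) → ¬ (i = b ∧ j = a) →
        (g : Matrix (Fin n) (Fin n) K) i i = (g : Matrix (Fin n) (Fin n) K) j j := by
      intro i j hij h1 h2
      rcases lt_or_gt_of_ne hij with h3 | h3
      · exact (hent i j h3 h1).2.2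
      · exact (hent j i h3 fun h4 => h2 ⟨h4.2, h4.1⟩).2.2.symm
    obtain ⟨c, hca, hcb⟩ : ∃ c : Fin n, c ≠ a ∧ c ≠ b :=
      Cfsg.Agent.Classical.exists_third (by rwa [Fintype.card_fin]) a b
    have toC : ∀ i, (g : Matrix (Fin n) (Fin n) K) i i = (g : Matrix (Fin n) (Fin n) K) c c := by
      intro i
      by_cases hic : i = c
      · rw [hic]
      · exact step i c hic (fun h => hcb h.2) (fun h => hca h.2)
    exact fun i j => (toC i).trans (toC j).symm
  obtain ⟨z, hz, hzg, s, -, hzent⟩ := diag_eq_scalar (by omega) (fun i j hij => hz0 i j hij.ne' (Or.inl hij)) hd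
  refine ⟨z * g, ⟨hzg, ?_⟩, map_center_mul hφ hz g⟩
  rw [hzent, hz0 a b (fun h => by rw [h] at hba; omega) (Or.inr ⟨rfl, rfl⟩), mul_zero]

theorem conj_rule_left {i k l : Fin n} (hki : k ≠ i) (hil : i ≠ l) (hkl : k ≠ l) (c a : K) :
    SpecialLinearGroup.transvection hki c * SpecialLinearGroup.transvection hil a *
        (SpecialLinearGroup.transvection hki c)⁻¹ =
      SpecialLinearGroup.transvection hil a * SpecialLinearGroup.transvection hkl (c * a) := by
  rw [SpecialLinearGroup.transvection_inv]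
  refine Subtype.ext ?_
  simp only [cmul, ctv, mul_add, add_mul, one_mul, mul_one, Matrix.single_mul_single_same,
    Matrix.single_mul_single_of_ne, ne_eq, hki.symm, hkl.symm, hil.symm, not_false_eq_true, add_zero, zero_mul,
    mul_zero, zero_add]
  ext r s
  simp only [Matrix.add_apply, Matrix.single_apply]
  split_ifs <;> ring

theorem conj_rule_right {i l j : Fin n} (hil : i ≠ l) (hlj : l ≠ j) (hij : i ≠ j) (c a : K) :
    SpecialLinearGroup.transvection hlj c * SpecialLinearGroup.transvection hil a *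
        (SpecialLinearGroup.transvection hlj c)⁻¹ =
      SpecialLinearGroup.transvection hil a * SpecialLinearGroup.transvection hij (-(a * c)) := by
  rw [SpecialLinearGroup.transvection_inv]
  refine Subtype.ext ?_
  simp only [cmul, ctv, mul_add, add_mul, one_mul, mul_one, Matrix.single_mul_single_same,
    Matrix.single_mul_single_of_ne, ne_eq, hil.symm, hij.symm, hlj.symm, not_false_eq_true, add_zero, zero_mul,
    mul_zero, zero_add]
  ext r s
  simp only [Matrix.add_apply, Matrix.single_apply]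
  split_ifs <;> ring

include hp hc in
theorem closedIn_eq {φ : SLn →* G} (hφ : IsPSLMap φ) (hn : 3 ≤ n) [Finite G] {T : Subgroup G}
    (hT : ClosedIn ((uni n K).map φ) T) (hne : T ≠ ⊥) : T = (uni n K).map φ := by
  obtain ⟨x, hxT, hx1, hxc⟩ := central_mem_of_closedIn (p := p) (isPGroup_map_uni φ) hT hne
  obtain ⟨u, hu, rfl⟩ := hT.1 hxT
  let z : Fin n := ⟨0, by omega⟩
  let l : Fin n := ⟨n - 1, by omega⟩
  have hzl : z < l := by rw [Fin.lt_def]; simp only [z, l]; omega
  have hoff : ∀ r s : Fin n, r ≠ s → ¬ (r = z ∧ s = l) → (u : Matrix (Fin n) (Fin n) K) r s = 0 := by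
    intro r s hrs hne'
    have hcomm : ∀ (i j : Fin n) (hij : i < j), ∀ r s,
        (if s = j then (u : Matrix (Fin n) (Fin n) K) r i * 1 else 0) =
          if r = i then 1 * (u : Matrix (Fin n) (Fin n) K) j s else 0 := by
      intro i j hij r s
      have h1 := hxc _ ⟨_, tv_mem_uni hij (1 : K), rfl⟩
      have h2 : u * SpecialLinearGroup.transvection hij.ne 1 = SpecialLinearGroup.transvection hij.ne 1 * u :=
        mul_inv_eq_iff_eq_mul.1 (lift_unique (p := p) hφ (tv_mem_uni hij 1) (tv_mem_uni hij 1)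
          (by rw [map_mul, map_mul, map_inv, ← h1, mul_inv_cancel_right]))
      refine add_left_cancel (a := (u : Matrix (Fin n) (Fin n) K) r s) ?_
      rw [← mul_tv_apply hij.ne, ← tv_left_apply hij.ne, h2]
    by_cases hs : s < l
    · have := hcomm s l hs r l
      rwa [if_pos rfl, if_neg hrs, mul_one] at this
    · by_cases hr : z < r
      · have := hcomm z r hr z s
        rw [if_pos rfl, if_neg (Ne.symm hrs), one_mul] at this
        exact this.symm
      · exfalso
        apply hne'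
        rw [Fin.lt_def] at hs hr
        exact ⟨Fin.ext (by simp only [z] at hr ⊢; omega), Fin.ext (by have := s.isLt; simp only [l] at hs ⊢; omega)⟩
  set a := (u : Matrix (Fin n) (Fin n) K) z l with ha
  have hu' : u = SpecialLinearGroup.transvection hzl.ne a := by
    refine Subtype.ext (Matrix.ext fun r s => ?_)
    rw [ctv, Matrix.add_apply, Matrix.single_apply]
    by_cases hrs : r = s
    · subst hrs
      rw [hu.2, Matrix.one_apply_eq, if_neg, add_zero]
      rintro ⟨h1, h2⟩; exact hzl.ne (h1.trans h2.symm)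
    · rw [Matrix.one_apply_ne hrs, zero_add]
      by_cases h : r = z ∧ s = l
      · rw [if_pos ⟨h.1.symm, h.2.symm⟩, h.1, h.2]
      · rw [if_neg (fun h' => h ⟨h'.1.symm, h'.2.symm⟩), hoff r s hrs h]
  have ha0 : a ≠ 0 := fun h => hx1 (by
    rw [hu', h, SpecialLinearGroup.transvection_coeff_zero, map_one])
  -- transvections known to lie in `T`
  have step : ∀ g v w : SLn, v ∈ uni n K → w ∈ uni n K → φ v ∈ T → g * v * g⁻¹ = v * w → φ w ∈ T := by
    intro g v w hv hw hvT he
    have h1 : φ g * φ v * (φ g)⁻¹ = φ v * φ w := by rw [← map_inv, ← map_mul, ← map_mul, he, map_mul]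
    have h2 := hT.2 _ hvT (φ g) (by rw [h1, ← map_mul]; exact ⟨_, (uni n K).mul_mem hv hw, rfl⟩)
    rw [h1] at h2
    exact (T.mul_mem_cancel_left hvT).1 h2
  have hmid : ∀ (i : Fin n) (hil : i < l), i ≠ z → ∀ c : K, φ (SpecialLinearGroup.transvection hil.ne c) ∈ T := by
    intro i hil hiz c
    refine step (SpecialLinearGroup.transvection hiz (c * a⁻¹)) u _ hu (tv_mem_uni hil c) hxT ?_
    rw [hu', conj_rule_left hiz hzl.ne hil.ne, mul_assoc c, inv_mul_cancel₀ ha0, mul_one]
  let o : Fin n := ⟨1, by omega⟩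
  have hol : o < l := by rw [Fin.lt_def]; simp only [o, l]; omega
  have hoz : o ≠ z := fun h => by simp [o, z] at h
  have hfirst : ∀ c : K, φ (SpecialLinearGroup.transvection hzl.ne c) ∈ T := by
    intro c
    refine step (SpecialLinearGroup.transvection hoz.symm c) (SpecialLinearGroup.transvection hol.ne 1) _
      (tv_mem_uni hol 1) (tv_mem_uni hzl c) (hmid o hol hoz 1) ?_
    rw [conj_rule_left hoz.symm hol.ne hzl.ne, mul_one]
  have hcol : ∀ (i : Fin n) (hil : i < l) (c : K), φ (SpecialLinearGroup.transvection hil.ne c) ∈ T := by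
    intro i hil c
    by_cases hiz : i = z
    · subst hiz; exact hfirst c
    · exact hmid i hil hiz c
  refine le_antisymm hT.1 ?_
  rintro _ ⟨g, hg, rfl⟩
  refine uni_le_of_tv (H := T.comap φ) (fun i j hij c => ?_) hg
  show φ _ ∈ T
  by_cases hjl : j = l
  · subst hjl; exact hcol i hij c
  have hjl' : j < l := by
    rw [Fin.lt_def]
    have := Fin.val_ne_of_ne hjl
    have := j.isLt
    simp only [l] at *
    omega
  have hil : i < l := hij.trans hjl'
  refine step (SpecialLinearGroup.transvection hjl'.ne' (-c)) (SpecialLinearGroup.transvection hil.ne 1) _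
    (tv_mem_uni hil 1) (tv_mem_uni hij c) (hcol i hil 1) ?_
  rw [conj_rule_right hil.ne hjl'.ne' hij.ne, one_mul, neg_neg]

include hp hc in
theorem simple_of_map {φ : SLn →* G} (hφ : IsPSLMap φ) (hn : 3 ≤ n) [Finite G] (S : Sylow p G)
    (hS : (S : Subgroup G) = (uni n K).map φ) : (groupFusionSystem (S : Subgroup G)).IsSimple p := by
  let z : Fin n := ⟨0, by omega⟩
  let l : Fin n := ⟨n - 1, by omega⟩
  have hzl : z < l := by rw [Fin.lt_def]; simp only [z, l]; omega
  refine simple_of_criterion (isSaturated_group S) ?_ (fun T hT => ?_) (fun E hEs hEi α hα => ?_)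
  · intro hb
    have h1 : φ (SpecialLinearGroup.transvection hzl.ne (1 : K)) = 1 := by
      rw [← Subgroup.mem_bot, ← hb, hS]; exact ⟨_, tv_mem_uni hzl 1, rfl⟩
    rw [← MonoidHom.mem_ker, hφ.ker, SpecialLinearGroup.transvection_mem_center_iff] at h1
    exact one_ne_zero h1
  · by_cases h1 : T = ⊥
    · exact Or.inl h1
    · right
      have h2 := closedIn_of_stronglyClosed hT
      rw [hS] at h2 ⊢
      exact closedIn_eq (p := p) hφ hn h2 h1
  rw [autGroup_group le_rfl] at hα
  obtain ⟨x, -, hx⟩ := mem_autInducedBy.1 hα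
  -- elements whose induced automorphism lies in `E`
  let M : Subgroup G := ((E.autGroup (S : Subgroup G)).comap (S : Subgroup G).normalizerMonoidHom).map
    (Subgroup.normalizer ((S : Subgroup G) : Set G)).subtype
  have hM : ∀ g ∈ M, ∀ β : MulAut (S : Subgroup G), (∀ y, (β y : G) = g * y * g⁻¹) → β ∈ E.autGroup (S : Subgroup G) := by
    rintro _ ⟨g, hg, rfl⟩ β hβ
    have : β = (S : Subgroup G).normalizerMonoidHom g := MulEquiv.ext fun y => Subtype.ext (hβ y)
    rw [this]; exact hg
  have hMof : ∀ (K' : Subgroup G), autInducedBy K' (S : Subgroup G) ≤ E.autGroup (S : Subgroup G) →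
      ∀ g ∈ K', ∀ hg : g ∈ Subgroup.normalizer ((S : Subgroup G) : Set G), g ∈ M := by
    intro K' hK' g hgK hgN
    refine ⟨⟨g, hgN⟩, hK' (mem_autInducedBy.2 ⟨g, hgK, fun y => rfl⟩), rfl⟩
  have hnormS : ∀ g ∈ tri n K, φ g ∈ Subgroup.normalizer ((S : Subgroup G) : Set G) := by
    intro g hg
    refine mem_normalizer_of_map_conj (Subgroup.eq_of_le_of_card_ge ?_ (card_map_conj _ _).ge)
    rw [hS]
    rintro _ ⟨_, ⟨v, hv, rfl⟩, rfl⟩
    refine ⟨g * v * g⁻¹, ⟨(tri n K).mul_mem ((tri n K).mul_mem hg hv.1) ((tri n K).inv_mem hg), fun i => ?_⟩, ?_⟩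
    · rw [cmul, cmul, IsUT.diag_mul (IsUT.mul hg hv.1) ((tri n K).inv_mem hg), IsUT.diag_mul hg hv.1, hv.2, mul_one,
        ← IsUT.diag_mul hg ((tri n K).inv_mem hg), ← cmul, mul_inv_cancel, cone, Matrix.one_apply_eq]
    · simp
  have hSM : (S : Subgroup G) ≤ M := fun s hs =>
    hMof S ((autInducedBy_le_autGroup le_rfl le_rfl)) s hs (Subgroup.le_normalizer hs)
  have htorus : ∀ (a b : Fin n) (hab : a ≠ b), (b : ℕ) = a + 1 → ∀ (c : K) (hc0 : c ≠ 0),
      φ (SpecialLinearGroup.diag2n hab c hc0) ∈ M := by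
    intro a b hab hb c hc0
    set R := (rad (K := K) a b hb).map φ with hR
    have hRS : R ≤ (S : Subgroup G) := hS ▸ Subgroup.map_mono (rad_le a b hb)
    have hRc : (groupFusionSystem (S : Subgroup G)).IsCentric R := by
      refine ⟨hRS, fun Q hQ => ?_⟩
      obtain ⟨-, -, g, rfl⟩ := isConj_group.1 hQ
      rintro y ⟨-, hy⟩
      rw [← map_centralizer_conj] at hy
      obtain ⟨w, hw, rfl⟩ := hy
      exact ⟨w, mem_map_rad_of_centralizer (p := p) hφ hn hw, rfl⟩
    have hnorm : ∀ g, (∀ v ∈ rad (K := K) a b hb, g * v * g⁻¹ ∈ rad (K := K) a b hb) →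
        φ g ∈ Subgroup.normalizer (R : Set G) := by
      intro g hg
      refine mem_normalizer_of_map_conj (Subgroup.eq_of_le_of_card_ge ?_ (card_map_conj _ _).ge)
      rintro _ ⟨_, ⟨v, hv, rfl⟩, rfl⟩
      exact ⟨g * v * g⁻¹, hg v hv, by simp⟩
    have hSN : (S : Subgroup G) ≤ Subgroup.normalizer (R : Set G) := by
      rw [hS]
      rintro _ ⟨g, hg, rfl⟩
      exact hnorm g fun v hv => conj_tri_rad hg hv
    have hRn : (groupFusionSystem (S : Subgroup G)).IsFullyNormalized R := by
      refine ⟨hRS, fun Q _ => ?_⟩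
      rw [show normalizerIn (S : Subgroup G) R = S from inf_eq_left.2 hSN]
      exact Subgroup.card_le_of_le inf_le_left
    have hle := autGroup_le_of_generated hEs hEi hRn hRc
    have hlt : a < b := by rw [Fin.lt_def]; omega
    have hgenmem : ∀ g : SLn, (∀ v ∈ rad (K := K) a b hb, g * v * g⁻¹ ∈ rad (K := K) a b hb) → g ^ p = 1 →
        φ g ∈ Subgroup.closure {g : G | g ∈ Subgroup.normalizer (R : Set G) ∧ ∃ k : ℕ, orderOf g = p ^ k} := by
      intro g hg hgp
      refine Subgroup.subset_closure ⟨hnorm g hg, ?_⟩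
      obtain ⟨k, -, hk⟩ := (Nat.dvd_prime_pow hp.out).1
        (orderOf_dvd_of_pow_eq_one (show φ g ^ p ^ 1 = 1 by rw [pow_one, ← map_pow, hgp, map_one]))
      exact ⟨k, hk⟩
    have hup : ∀ t : K, φ (SpecialLinearGroup.transvection hab t) ∈
        Subgroup.closure {g : G | g ∈ Subgroup.normalizer (R : Set G) ∧ ∃ k : ℕ, orderOf g = p ^ k} :=
      fun t => hgenmem _ (fun v hv => conj_tri_rad (tv_mem_uni hlt t) hv) (tv_pow_char hab t)
    have hdown : ∀ t : K, φ (SpecialLinearGroup.transvection hab.symm t) ∈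
        Subgroup.closure {g : G | g ∈ Subgroup.normalizer (R : Set G) ∧ ∃ k : ℕ, orderOf g = p ^ k} :=
      fun t => hgenmem _ (fun v hv => by
        rw [SpecialLinearGroup.transvection_inv]; exact conj_lower_rad hab.symm t hv) (tv_pow_char hab.symm t)
    refine hMof _ hle _ ?_ (hnormS _ ?_)
    · rw [Cfsg.Agent.Classical.diag2n_decompose hab hc0]
      simp only [map_mul, Cfsg.Agent.Classical.tv]
      exact mul_mem (mul_mem (mul_mem (mul_mem (mul_mem (hup _) (hdown _)) (hup _)) (hup _)) (hdown _)) (hup _)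
    · rw [mem_tri, SpecialLinearGroup.diag2n_coe]
      intro i j hij
      exact Matrix.diagonal_apply_ne _ hij.ne'
  obtain ⟨g, rfl⟩ := hφ.surj x
  have hgN : φ g ∈ Subgroup.normalizer ((S : Subgroup G) : Set G) := mem_normalizer_of_aut hx
  have hgtri : g ∈ tri n K := mem_tri_of_conj fun i j hij _ =>
    exists_lift (p := p) hφ (tv_mem_uni hij 1)
      (hS ▸ (Subgroup.mem_normalizer_iff.1 hgN _).1 (hS ▸ ⟨_, tv_mem_uni hij 1, rfl⟩))
  refine hM _ ?_ α hx
  -- reduce the diagonal
  have key : ∀ (m k : ℕ) (g : SLn), k + m + 1 = n → g ∈ tri n K →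
      (∀ i : Fin n, (i : ℕ) < k → (g : Matrix (Fin n) (Fin n) K) i i = 1) → φ g ∈ M := by
    intro m
    induction m with
    | zero =>
      intro k g hk hg hd
      refine hSM (hS ▸ ⟨g, ⟨hg, fun i => ?_⟩, rfl⟩)
      by_cases hi : (i : ℕ) < k
      · exact hd i hi
      have hdet : (g : Matrix (Fin n) (Fin n) K).det = 1 := g.2
      rw [Matrix.det_of_upperTriangular (fun a b hab => hg a b hab)] at hdet
      refine (Finset.prod_eq_single (f := fun x => (g : Matrix (Fin n) (Fin n) K) x x) i ?_ ?_).symm.trans hdet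
      · intro b _ hb
        refine hd b ?_
        have := Fin.val_ne_of_ne hb
        have := b.isLt; have := i.isLt
        omega
      · exact fun h => absurd (Finset.mem_univ _) h
    | succ m ih =>
      intro k g hk hg hd
      let a : Fin n := ⟨k, by omega⟩
      let b : Fin n := ⟨k + 1, by omega⟩
      have hab : a ≠ b := fun h => by simp [a, b] at h
      have hd0 : (g : Matrix (Fin n) (Fin n) K) a a ≠ 0 := by
        intro h0
        have hdet : (g : Matrix (Fin n) (Fin n) K).det = 1 := g.2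
        rw [Matrix.det_of_upperTriangular (fun a b hab => hg a b hab)] at hdet
        exact zero_ne_one ((Finset.prod_eq_zero (f := fun x => (g : Matrix (Fin n) (Fin n) K) x x)
          (Finset.mem_univ a) h0).symm.trans hdet)
      let h := SpecialLinearGroup.diag2n hab ((g : Matrix (Fin n) (Fin n) K) a a) hd0
      have hh : φ h ∈ M := htorus a b hab rfl _ hd0
      have hht : h ∈ tri n K := by
        rw [mem_tri, SpecialLinearGroup.diag2n_coe]
        intro i j hij
        exact Matrix.diagonal_apply_ne _ hij.ne'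
      have h2 : φ (h⁻¹ * g) ∈ M := by
        refine ih (k + 1) _ (by omega) ((tri n K).mul_mem ((tri n K).inv_mem hht) hg) fun i hi => ?_
        have hprod : (h : Matrix (Fin n) (Fin n) K) i i * ((h⁻¹ * g : SLn) : Matrix (Fin n) (Fin n) K) i i =
            (g : Matrix (Fin n) (Fin n) K) i i := by
          rw [← IsUT.diag_mul hht ((tri n K).mul_mem ((tri n K).inv_mem hht) hg), ← cmul, mul_inv_cancel_left]
        rw [show (h : Matrix (Fin n) (Fin n) K) = _ from SpecialLinearGroup.diag2n_coe hab _ hd0,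
          Matrix.diagonal_apply_eq] at hprod
        by_cases hia : i = a
        · subst hia
          simp only [if_pos rfl] at hprod
          exact mul_left_cancel₀ hd0 (hprod.trans (mul_one _).symm)
        · have hik : (i : ℕ) < k := by
            have := Fin.val_ne_of_ne hia
            simp only [a] at this
            omega
          have hib : i ≠ b := fun h' => by rw [h'] at hik; simp [b] at hik
          simp only [if_neg hia, if_neg hib, one_mul] at hprod
          rw [hprod, hd i hik]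
      have := M.mul_mem hh h2
      rwa [← map_mul, mul_inv_cancel_left] at this
  exact key (n - 1) 0 g (by omega) hgtri (fun i hi => absurd hi (by omega))

include hp hc in
theorem simple_PSL (hn : 3 ≤ n) (S : Sylow p (ProjectiveSpecialLinearGroup (Fin n) K)) :
    (groupFusionSystem (S : Subgroup (ProjectiveSpecialLinearGroup (Fin n) K))).IsSimple p := by
  have hφ : IsPSLMap (QuotientGroup.mk' (Subgroup.center (SpecialLinearGroup (Fin n) K))) :=
    ⟨QuotientGroup.mk'_surjective _, QuotientGroup.ker_mk' _⟩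
  obtain ⟨S₀, hS₀⟩ := sylow_eq (p := p) hφ (by omega)
  obtain ⟨g, hg⟩ := MulAction.exists_smul_eq (ProjectiveSpecialLinearGroup (Fin n) K) S₀ S
  let φ := (MulAut.conj g).toMonoidHom.comp (QuotientGroup.mk' (Subgroup.center (SpecialLinearGroup (Fin n) K)))
  refine simple_of_map (φ := φ) ⟨(MulAut.conj g).surjective.comp hφ.surj, ?_⟩ hn S ?_
  · refine Eq.trans ?_ hφ.ker; ext x; simp [φ]
  · rw [← hg, ← Subgroup.map_map, ← hS₀]; rfl

end Cfsg.Agent.Fus.Unip
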