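import Mathlib
import Cfsg.Agent.Classical.SL

set_option autoImplicit false
set_option maxHeartbeats 400000

/-! Upper triangular and unitriangular subgroups of `SL(n,K)` over a finite field of characteristic `p`. -/

namespace Cfsg.Agent.Fus.Unip

open Matrix

variable {n : ℕ} {K : Type*} [Field K]

/-- Upper triangular. -/
def IsUT (g : Matrix (Fin n) (Fin n) K) : Prop := ∀ i j, j < i → g i j = 0

theorem IsUT.mul {g h : Matrix (Fin n) (Fin n) K} (hg : IsUT g) (hh : IsUT h) : IsUT (g * h) := by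
  intro i j hji
  rw [Matrix.mul_apply]
  refine Finset.sum_eq_zero fun s _ => ?_
  rcases lt_or_ge s i with h1 | h1
  · rw [hg i s h1, zero_mul]
  · rw [hh s j (lt_of_lt_of_le hji h1), mul_zero]

theorem IsUT.diag_mul {g h : Matrix (Fin n) (Fin n) K} (hg : IsUT g) (hh : IsUT h) (i : Fin n) :
    (g * h) i i = g i i * h i i := by
  rw [Matrix.mul_apply]
  refine Finset.sum_eq_single i (fun s _ hs => ?_) (fun h => absurd (Finset.mem_univ _) h)
  rcases lt_or_gt_of_ne hs with h1 | h1
  · rw [hg i s h1, zero_mul]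
  · rw [hh s i h1, mul_zero]

theorem isUT_one : IsUT (1 : Matrix (Fin n) (Fin n) K) := fun _ _ h => Matrix.one_apply_ne h.ne'

theorem IsUT.pow {g : Matrix (Fin n) (Fin n) K} (hg : IsUT g) :
    ∀ m : ℕ, IsUT (g ^ m) ∧ ∀ i, (g ^ m) i i = g i i ^ m
  | 0 => by simp [isUT_one]
  | m + 1 => by
    obtain ⟨h1, h2⟩ := hg.pow m
    refine ⟨by rw [pow_succ]; exact h1.mul hg, fun i => ?_⟩
    rw [pow_succ, h1.diag_mul hg, h2, pow_succ]

/-- Unitriangular. -/
def IsU (g : Matrix (Fin n) (Fin n) K) : Prop := IsUT g ∧ ∀ i, g i i = 1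

theorem IsU.one : IsU (1 : Matrix (Fin n) (Fin n) K) := ⟨isUT_one, fun _ => Matrix.one_apply_eq _⟩

theorem IsU.mul {g h : Matrix (Fin n) (Fin n) K} (hg : IsU g) (hh : IsU h) : IsU (g * h) :=
  ⟨hg.1.mul hh.1, fun i => by rw [hg.1.diag_mul hh.1, hg.2, hh.2, one_mul]⟩

theorem cmul (a b : SpecialLinearGroup (Fin n) K) :
    ((a * b : SpecialLinearGroup (Fin n) K) : Matrix (Fin n) (Fin n) K) =
      (a : Matrix (Fin n) (Fin n) K) * (b : Matrix (Fin n) (Fin n) K) := rfl

theorem cone : ((1 : SpecialLinearGroup (Fin n) K) : Matrix (Fin n) (Fin n) K) = 1 := rfl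

theorem cpow (a : SpecialLinearGroup (Fin n) K) (m : ℕ) :
    ((a ^ m : SpecialLinearGroup (Fin n) K) : Matrix (Fin n) (Fin n) K) = (a : Matrix (Fin n) (Fin n) K) ^ m :=
  Matrix.SpecialLinearGroup.coe_pow a m

theorem ctv {i j : Fin n} (h : i ≠ j) (c : K) :
    ((SpecialLinearGroup.transvection h c : SpecialLinearGroup (Fin n) K) : Matrix (Fin n) (Fin n) K) =
      1 + Matrix.single i j c := rfl

variable [Fintype K]

theorem inv_eq_pow (g : SpecialLinearGroup (Fin n) K) : g⁻¹ = g ^ (orderOf g - 1) :=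
  inv_eq_of_mul_eq_one_right (by
    rw [← pow_succ', Nat.sub_add_cancel (orderOf_pos g), pow_orderOf_eq_one])

/-- The upper triangular subgroup. -/
def tri (n : ℕ) (K : Type*) [Field K] [Fintype K] : Subgroup (SpecialLinearGroup (Fin n) K) where
  carrier := {g | IsUT (g : Matrix (Fin n) (Fin n) K)}
  one_mem' := by show IsUT _; rw [cone]; exact isUT_one
  mul_mem' {a b} ha hb := by show IsUT _; rw [cmul]; exact IsUT.mul ha hb
  inv_mem' {a} ha := by
    show IsUT _
    rw [inv_eq_pow, cpow]; exact (IsUT.pow ha _).1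

/-- The unitriangular subgroup. -/
def uni (n : ℕ) (K : Type*) [Field K] [Fintype K] : Subgroup (SpecialLinearGroup (Fin n) K) where
  carrier := {g | IsU (g : Matrix (Fin n) (Fin n) K)}
  one_mem' := by show IsU _; rw [cone]; exact IsU.one
  mul_mem' {a b} ha hb := by show IsU _; rw [cmul]; exact IsU.mul ha hb
  inv_mem' {a} ha := by
    show IsU _
    rw [inv_eq_pow, cpow]
    exact ⟨(IsUT.pow ha.1 _).1, fun i => by rw [(IsUT.pow ha.1 _).2, ha.2, one_pow]⟩

theorem mem_tri {g : SpecialLinearGroup (Fin n) K} : g ∈ tri n K ↔ IsUT (g : Matrix (Fin n) (Fin n) K) := Iff.rfl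

theorem mem_uni {g : SpecialLinearGroup (Fin n) K} : g ∈ uni n K ↔ IsU (g : Matrix (Fin n) (Fin n) K) := Iff.rfl

theorem uni_le_tri : uni n K ≤ tri n K := fun _ h => h.1

theorem tv_mem_uni {i j : Fin n} (hij : i < j) (c : K) :
    (SpecialLinearGroup.transvection hij.ne c) ∈ uni n K := by
  rw [mem_uni, ctv]
  refine ⟨fun a b hba => ?_, fun a => ?_⟩
  · rw [Matrix.add_apply, Matrix.one_apply_ne hba.ne', Matrix.single_apply, if_neg, add_zero]
    rintro ⟨rfl, rfl⟩; exact lt_asymm hij hba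
  · rw [Matrix.add_apply, Matrix.one_apply_eq, Matrix.single_apply, if_neg, add_zero]
    rintro ⟨rfl, rfl⟩; exact lt_irrefl _ hij

variable {p : ℕ} [hp : Fact p.Prime] [hc : CharP K p]

theorem eq_one_of_pow_char (k : ℕ) {x : K} (h : x ^ p ^ k = 1) : x = 1 := by
  have h1 : (x - 1) ^ p ^ k = 0 := by rw [sub_pow_char_pow, h, one_pow, sub_self]
  exact sub_eq_zero.1 (eq_zero_of_pow_eq_zero h1)

theorem eq_of_pow_char (k : ℕ) {x y : K} (h : x ^ p ^ k = y ^ p ^ k) : x = y := by
  have h1 : (x - y) ^ p ^ k = 0 := by rw [sub_pow_char_pow, h, sub_self]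
  exact sub_eq_zero.1 (eq_zero_of_pow_eq_zero h1)

theorem raise_pow {N : Matrix (Fin n) (Fin n) K} (hN : ∀ i j : Fin n, j ≤ i → N i j = 0) :
    ∀ (m : ℕ) (i j : Fin n), (j : ℕ) < (i : ℕ) + m → (N ^ m) i j = 0
  | 0, i, j, h => by
    rw [pow_zero, Matrix.one_apply_ne]; intro he; rw [he] at h; omega
  | m + 1, i, j, h => by
    rw [pow_succ, Matrix.mul_apply]
    refine Finset.sum_eq_zero fun s _ => ?_
    rcases lt_or_ge (s : ℕ) ((i : ℕ) + m) with h1 | h1
    · rw [raise_pow hN m i s h1, zero_mul]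
    · rw [hN s j (by rw [Fin.le_def]; omega), mul_zero]

theorem pow_eq_one_of_uni {g : SpecialLinearGroup (Fin n) K} (hg : g ∈ uni n K) :
    ∃ k : ℕ, g ^ p ^ k = 1 := by
  rcases Nat.eq_zero_or_pos n with rfl | hn
  · exact ⟨0, Subsingleton.elim _ _⟩
  have : Nonempty (Fin n) := ⟨⟨0, hn⟩⟩
  set N : Matrix (Fin n) (Fin n) K := (g : Matrix (Fin n) (Fin n) K) - 1 with hN
  have hz : ∀ i j : Fin n, j ≤ i → N i j = 0 := by
    intro i j hji
    rcases eq_or_lt_of_le hji with rfl | h
    · rw [hN, Matrix.sub_apply, hg.2, Matrix.one_apply_eq, sub_self]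
    · rw [hN, Matrix.sub_apply, hg.1 i j h, Matrix.one_apply_ne h.ne', sub_self]
  refine ⟨n, Subtype.ext ?_⟩
  rw [cpow, cone,
    show (g : Matrix (Fin n) (Fin n) K) = 1 + N by rw [hN, add_sub_cancel],
    add_pow_char_pow_of_commute _ _ (Commute.one_left N), one_pow]
  suffices N ^ p ^ n = 0 by rw [this, add_zero]
  ext i j
  have h1 : n ≤ p ^ n := (Nat.lt_pow_self hp.out.one_lt).le
  exact raise_pow hz _ i j (by omega)

theorem mem_uni_of_pow {g : SpecialLinearGroup (Fin n) K} (hg : g ∈ tri n K) {k : ℕ}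
    (h : g ^ p ^ k ∈ uni n K) : g ∈ uni n K := by
  refine ⟨hg, fun i => eq_one_of_pow_char (p := p) k ?_⟩
  have h1 := h.2 i
  rw [cpow, (IsUT.pow hg _).2] at h1
  exact h1

include hp hc in
/-- A unitriangular element congruent to a conjugate of one modulo the centre is the conjugate. -/
theorem center_eq_one {g u v z : SpecialLinearGroup (Fin n) K} (hu : u ∈ uni n K) (hv : v ∈ uni n K)
    (hz : z ∈ Subgroup.center (SpecialLinearGroup (Fin n) K)) (h : g * u * g⁻¹ = z * v) : z = 1 := by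
  obtain ⟨a, ha⟩ := pow_eq_one_of_uni (p := p) hu
  obtain ⟨b, hb⟩ := pow_eq_one_of_uni (p := p) hv
  have hu' : u ^ p ^ (a + b) = 1 := by rw [pow_add, pow_mul, ha, one_pow]
  have hv' : v ^ p ^ (a + b) = 1 := by rw [add_comm a b, pow_add, pow_mul, hb, one_pow]
  have h1 : (z * v) ^ p ^ (a + b) = 1 := by rw [← h, conj_pow, hu', mul_one, mul_inv_cancel]
  have hc : Commute z v := (Subgroup.mem_center_iff.1 hz v).symm
  rw [hc.mul_pow, hv', mul_one] at h1
  obtain ⟨r, -, hzr⟩ := Matrix.SpecialLinearGroup.mem_center_iff.1 hz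
  refine Subtype.ext ?_
  rw [← hzr, cone]
  rcases Nat.eq_zero_or_pos n with rfl | hn
  · exact Subsingleton.elim _ _
  have h2 : ((z ^ p ^ (a + b) : SpecialLinearGroup (Fin n) K) : Matrix (Fin n) (Fin n) K) = 1 := by rw [h1, cone]
  rw [cpow, ← hzr, ← map_pow] at h2
  have h3 := congrFun (congrFun h2 ⟨0, hn⟩) ⟨0, hn⟩
  simp only [Matrix.scalar_apply, Matrix.diagonal_apply_eq, Matrix.one_apply_eq] at h3
  rw [eq_one_of_pow_char (p := p) (a + b) h3, map_one]

theorem mem_tri_of_conj {g : SpecialLinearGroup (Fin n) K}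
    (h : ∀ (i j : Fin n) (hij : i < j), (j : ℕ) = i + 1 →
      g * SpecialLinearGroup.transvection hij.ne 1 * g⁻¹ ∈ uni n K) : g ∈ tri n K := by
  suffices key : ∀ (d : ℕ) (r i : Fin n), n ≤ (r : ℕ) + d → i < r →
      (g : Matrix (Fin n) (Fin n) K) r i = 0 from fun r i hir => key n r i (by omega) hir
  intro d
  induction d with
  | zero => intro r i hr _; omega
  | succ d ih =>
    intro r i hr hir
    have hj : (i : ℕ) + 1 < n := by omega
    set j : Fin n := ⟨(i : ℕ) + 1, hj⟩ with hjdef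
    have hij : i < j := by rw [Fin.lt_def]; simp [hjdef]
    set w := g * SpecialLinearGroup.transvection hij.ne 1 * g⁻¹ with hw
    have hwu : IsU (w : Matrix (Fin n) (Fin n) K) := h i j hij rfl
    have heq : w * g = g * SpecialLinearGroup.transvection hij.ne 1 := by rw [hw]; group
    have he := congrArg (fun m : SpecialLinearGroup (Fin n) K => (m : Matrix (Fin n) (Fin n) K) r j) heq
    simp only [cmul, ctv, mul_add, mul_one,
      Matrix.add_apply, Matrix.mul_single_apply_same] at he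
    rw [Matrix.mul_apply, Finset.sum_eq_single r] at he
    · rw [hwu.2, one_mul, left_eq_add] at he
      exact he
    · intro s _ hs
      rcases lt_or_gt_of_ne hs with h1 | h1
      · rw [hwu.1 r s h1, zero_mul]
      · rw [ih s j (by rw [Fin.lt_def] at h1; omega) (by rw [Fin.lt_def] at *; simp only [hjdef]; omega), mul_zero]
    · exact fun h' => absurd (Finset.mem_univ _) h'

theorem tv_left_apply {i j : Fin n} (hij : i ≠ j) (c : K) (g : SpecialLinearGroup (Fin n) K) (r s : Fin n) :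
    ((SpecialLinearGroup.transvection hij c * g : SpecialLinearGroup (Fin n) K) : Matrix (Fin n) (Fin n) K) r s =
      (g : Matrix (Fin n) (Fin n) K) r s + if r = i then c * (g : Matrix (Fin n) (Fin n) K) j s else 0 := by
  rw [cmul, ctv, add_mul, one_mul, Matrix.add_apply]
  split_ifs with h
  · rw [h, Matrix.single_mul_apply_same]
  · rw [Matrix.single_mul_apply_of_ne _ _ _ _ _ h]

theorem mul_tv_apply {i j : Fin n} (hij : i ≠ j) (c : K) (g : SpecialLinearGroup (Fin n) K) (r s : Fin n) :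
    ((g * SpecialLinearGroup.transvection hij c : SpecialLinearGroup (Fin n) K) : Matrix (Fin n) (Fin n) K) r s =
      (g : Matrix (Fin n) (Fin n) K) r s + if s = j then (g : Matrix (Fin n) (Fin n) K) r i * c else 0 := by
  rw [cmul, ctv, mul_add, mul_one, Matrix.add_apply]
  split_ifs with h
  · rw [h, Matrix.mul_single_apply_same]
  · rw [Matrix.mul_single_apply_of_ne _ _ _ _ _ h]

/-- The unitriangular group is generated by its transvections. -/
theorem uni_le_of_tv {H : Subgroup (SpecialLinearGroup (Fin n) K)}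
    (h : ∀ (i j : Fin n) (hij : i < j) (c : K), SpecialLinearGroup.transvection hij.ne c ∈ H) :
    uni n K ≤ H := by
  classical
  suffices key : ∀ (d : ℕ) (g : SpecialLinearGroup (Fin n) K), g ∈ uni n K →
      ((Finset.univ : Finset (Fin n × Fin n)).filter
        (fun x => x.1 ≠ x.2 ∧ (g : Matrix (Fin n) (Fin n) K) x.1 x.2 ≠ 0)).card = d → g ∈ H from
    fun g hg => key _ g hg rfl
  intro d
  induction d using Nat.strong_induction_on with
  | _ d ih =>
  intro g hg hd
  set X := (Finset.univ : Finset (Fin n × Fin n)).filter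
    (fun x => x.1 ≠ x.2 ∧ (g : Matrix (Fin n) (Fin n) K) x.1 x.2 ≠ 0) with hX
  rcases X.eq_empty_or_nonempty with h0 | hne
  · have : g = 1 := by
      refine Subtype.ext (Matrix.ext fun a b => ?_)
      rw [cone]
      by_cases hab : a = b
      · subst hab; rw [hg.2, Matrix.one_apply_eq]
      · rw [Matrix.one_apply_ne hab]
        by_contra hne
        have : (a, b) ∈ X := by rw [hX]; simp [hab, hne]
        simp [h0] at this
    rw [this]; exact H.one_mem
  obtain ⟨⟨i, j⟩, hij, hmax⟩ := X.exists_max_image Prod.fst hne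
  rw [hX, Finset.mem_filter] at hij
  obtain ⟨-, hne', hval⟩ := hij
  have hlt : i < j := by
    rcases lt_or_gt_of_ne hne' with h1 | h1
    · exact h1
    · exact absurd (hg.1 i j h1) hval
  set c := (g : Matrix (Fin n) (Fin n) K) i j
  have hrow : ∀ s, j ≠ s → (g : Matrix (Fin n) (Fin n) K) j s = 0 := by
    intro s hs
    by_contra hne2
    have := hmax (j, s) (by rw [hX]; simp [hs, hne2])
    exact not_lt.2 this hlt
  set g' := SpecialLinearGroup.transvection hlt.ne (-c) * g with hg'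
  have hval' : ∀ r s, (r, s) ≠ (i, j) → r ≠ s →
      (g' : Matrix (Fin n) (Fin n) K) r s = (g : Matrix (Fin n) (Fin n) K) r s := by
    intro r s hrs hne2
    rw [hg', tv_left_apply]
    split_ifs with h1
    · subst h1
      rw [hrow s (fun h2 => hrs (by rw [← h2])), mul_zero, add_zero]
    · rw [add_zero]
  have hzero : (g' : Matrix (Fin n) (Fin n) K) i j = 0 := by
    rw [hg', tv_left_apply, if_pos rfl, hg.2, mul_one, ← sub_eq_add_neg, sub_self]
  have hmem : g' ∈ H := by
    refine ih _ ?_ g' ((uni n K).mul_mem (tv_mem_uni hlt _) hg) rfl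
    rw [← hd]
    refine Finset.card_lt_card (Finset.ssubset_iff_subset_ne.2 ⟨fun x hx => ?_, fun heq => ?_⟩)
    · rw [Finset.mem_filter] at hx
      rw [hX, Finset.mem_filter]
      refine ⟨Finset.mem_univ _, hx.2.1, ?_⟩
      obtain ⟨a, b⟩ := x
      by_cases hab : (a, b) = (i, j)
      · rw [Prod.mk.injEq] at hab
        exact absurd (show (g' : Matrix (Fin n) (Fin n) K) a b = 0 by rw [hab.1, hab.2]; exact hzero) hx.2.2
      · rw [← hval' a b hab hx.2.1]; exact hx.2.2
    · have hin : (i, j) ∈ X := by rw [hX]; simp [hne']; exact hval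
      rw [← heq, Finset.mem_filter] at hin
      exact hin.2.2 hzero
  have : g = (SpecialLinearGroup.transvection hlt.ne (-c))⁻¹ * g' := by rw [hg', inv_mul_cancel_left]
  rw [this]
  exact H.mul_mem (H.inv_mem (h _ _ hlt _)) hmem

end Cfsg.Agent.Fus.Unip
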