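import Cfsg.Agent.Fus.Saturation

set_option autoImplicit false

/-! Saturation from: `S` fully automized and fully normalized implies receptive. -/

namespace Cfsg.Agent.Fus

open Cfsg Cfsg.FusionSystem

variable {Ω : Type*} [Group Ω] {S : Subgroup Ω} {F : FusionSystem S}

theorem fullyAutomized_of_receptive [Finite S] {p : ℕ} [Fact p.Prime] (hS : IsPGroup p S)
    (hFA : F.IsFullyAutomized p S) (hR : ∀ P : Subgroup Ω, F.IsFullyNormalized P → F.IsReceptive P) :
    ∀ n (P : Subgroup Ω), Nat.card S - Nat.card P = n → F.IsFullyNormalized P → F.IsFullyAutomized p P := by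
  intro n
  induction n using Nat.strong_induction_on with
  | _ n ih =>
  intro P hn hP
  by_contra hnA
  have hPS : P < S := lt_of_le_of_ne hP.1 fun e => hnA (e ▸ hFA)
  have hfinP : Finite P := finite_le hP.1
  obtain ⟨T, hT⟩ := ((isPGroup_autInducedBy hS le_rfl P).of_equiv
    (Subgroup.subgroupOfEquivOfLe (autInducedBy_le_autGroup (F := F) hP.1 le_rfl)).symm).exists_le_sylow
  have hlt : (autInducedBy S P).subgroupOf (F.autGroup P) < T :=
    lt_of_le_of_ne hT fun e => hnA ⟨hP.1, T, e.symm⟩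
  have : Group.IsNilpotent (T : Subgroup (F.autGroup P)) := T.2.isNilpotent
  have hlt' : ((autInducedBy S P).subgroupOf (F.autGroup P)).subgroupOf T < ⊤ :=
    lt_of_le_of_ne le_top fun e => hlt.not_ge (Subgroup.subgroupOf_eq_top.1 e)
  obtain ⟨⟨a, haT⟩, han, haA⟩ := SetLike.exists_of_lt (Group.normalizerCondition_of_isNilpotent _ hlt')
  obtain ⟨k, hk⟩ := T.2 ⟨a, haT⟩
  have hak : (a : MulAut P) ^ p ^ k = 1 := congrArg (fun z : (T : Subgroup (F.autGroup P)) => ((z : F.autGroup P) : MulAut P)) hk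
  have haA' : (a : MulAut P) ∉ autInducedBy S P := haA
  have hnorm : ∀ γ ∈ autInducedBy S P, (a : MulAut P) * γ * (a : MulAut P)⁻¹ ∈ autInducedBy S P := by
    intro γ hγ
    exact ((Subgroup.mem_normalizer_iff.1 han) ⟨⟨γ, autInducedBy_le_autGroup hP.1 le_rfl hγ⟩, hT hγ⟩).1 hγ
  -- extend `a` to the normalizer
  have ha : IsoMem F ((a : MulAut P) : P ≃* P) := (mem_autGroup_iff_isoMem hP.1).1 a.2
  obtain ⟨ψ, hψ, hψag⟩ := (hR P hP).2 P _ ha (isoMem_range _)
  have hN : normalizerIn S P ≤ extender S P (P.subtype.comp (a : MulAut P).toMonoidHom) := by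
    intro g hg
    obtain ⟨s, hs, hs'⟩ := mem_autInducedBy.1 (hnorm _ (conjAut_mem hg))
    refine mem_extender.2 ⟨hg.1, hg.2, s, hs, fun x hx => ?_⟩
    have h1 := hs' ((a : MulAut P) x)
    rw [MulAut.mul_apply, MulAut.mul_apply, MulAut.inv_apply_self] at h1
    exact h1
  have hPN : P ≤ normalizerIn S P := le_normalizerIn hP.1
  have hr : (ψ.comp (Subgroup.inclusion hN)).range ≤ normalizerIn S P := by
    rintro _ ⟨x, rfl⟩
    refine ⟨hom_apply_mem hψ _, mem_normalizer_of_aut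
      (α := (a : MulAut P) * conjAut x.2 * (a : MulAut P)⁻¹) fun y => ?_⟩
    obtain ⟨z, rfl⟩ := (a : MulAut P).surjective y
    rw [MulAut.mul_apply, MulAut.mul_apply, MulAut.inv_apply_self]
    have e1 : ((a : MulAut P) z : Ω) = ψ ⟨z, hN (hPN z.2)⟩ := (hψag z z.2 _).symm
    have e2 : ((a : MulAut P) (conjAut x.2 z) : Ω) = ψ ⟨_, hN (hPN (conjAut x.2 z).2)⟩ :=
      (hψag _ (conjAut x.2 z).2 _).symm
    rw [e1, e2, MonoidHom.comp_apply, ← map_inv, ← map_mul, ← map_mul]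
    rfl
  have hNfin : Finite (normalizerIn S P) := finite_le inf_le_left
  have hψ' := restrict_mem hψ hN
  obtain ⟨β, hβ, hβψ⟩ := exists_iso_of_range hψ'
    (Subgroup.eq_of_le_of_card_ge hr (card_range_of_hom hψ').ge)
  have hβa : ∀ (x : P), ((β ⟨x, hPN x.2⟩ : normalizerIn S P) : Ω) = ((a : MulAut P) x : Ω) := fun x =>
    (hβψ _).trans (hψag x x.2 _)
  have hβm : (β : MulAut (normalizerIn S P)) ∈ F.autGroup (normalizerIn S P) :=
    (mem_autGroup_iff_isoMem inf_le_left).2 hβ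
  let b : MulAut (normalizerIn S P) := β
  have hbpow : ∀ (j : ℕ) (x : P), (((b ^ j) ⟨x, hPN x.2⟩ : normalizerIn S P) : Ω) =
      ((((a : MulAut P)) ^ j) x : Ω) := by
    intro j
    induction j with
    | zero => intro x; simp
    | succ j ihj =>
      intro x
      rw [pow_succ b, pow_succ (a : MulAut P), MulAut.mul_apply, MulAut.mul_apply, ← ihj]
      exact congrArg (fun z => ((b ^ j) z : Ω)) (Subtype.ext (hβa x))
  -- the `p`-part of `b`
  let m := orderOf b / p ^ (orderOf b).factorization p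
  have hm : Nat.Coprime p m := Nat.coprime_ordCompl (Fact.out) (isOfFinOrder_of_finite b).orderOf_pos.ne'
  have hbm : (b ^ m) ^ p ^ (orderOf b).factorization p = 1 := by
    rw [← pow_mul, Nat.mul_comm, Nat.ordProj_mul_ordCompl_eq_self, pow_orderOf_eq_one]
  have ham : (a : MulAut P) ^ m ∉ autInducedBy S P := by
    intro h
    apply haA'
    obtain ⟨q, -, hq2⟩ := (Nat.dvd_prime_pow Fact.out).1 (orderOf_dvd_of_pow_eq_one hak)
    have hcop : Nat.Coprime (orderOf (a : MulAut P)) m := by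
      rw [hq2]; exact Nat.Coprime.pow_left _ hm
    obtain ⟨t, ht⟩ := exists_pow_eq_self_of_coprime hcop.symm
    rw [← ht]; exact Subgroup.pow_mem _ h t
  -- move to a fully normalized conjugate of the normalizer
  obtain ⟨R', hR', hR'n⟩ := exists_fullyNormalized (F := F) (P := normalizerIn S P) inf_le_left
  have hlt2 : Nat.card P < Nat.card (normalizerIn S P) := by
    refine lt_of_le_of_ne (Subgroup.card_le_of_le hPN) fun e => (lt_normalizerIn' hS hPS).ne ?_
    exact Subgroup.eq_of_le_of_card_ge hPN e.ge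
  have hR'A : F.IsFullyAutomized p R' := by
    refine ih _ ?_ R' rfl hR'n
    have hc := card_eq_of_isConj hR'
    have : Nat.card R' ≤ Nat.card S := Subgroup.card_le_of_le hR'n.1
    omega
  obtain ⟨e, he⟩ := exists_iso_of_isConj hR'
  have hcm : Subgroup.zpowers (MulAut.congr e (b ^ m)) ≤ F.autGroup R' :=
    Subgroup.zpowers_le.2 (congr_mem_autGroup he (Subgroup.pow_mem _ hβm m))
  have hfinR : Finite R' := finite_le hR'n.1
  have hcp : IsPGroup p (Subgroup.zpowers (MulAut.congr e (b ^ m))) := by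
    refine IsPGroup.iff_card.2 ?_
    obtain ⟨q, -, hq⟩ := (Nat.dvd_prime_pow Fact.out).1
      (orderOf_dvd_of_pow_eq_one (show (MulAut.congr e (b ^ m)) ^ p ^ (orderOf b).factorization p = 1 by
        rw [← map_pow, hbm, map_one]))
    exact ⟨q, by rw [Nat.card_zpowers, hq]⟩
  obtain ⟨γ, hγ, hγc⟩ := exists_conj_into hR'A hcm hcp
  obtain ⟨s, hs, hs'⟩ := mem_autInducedBy.1 (hγc _ (Subgroup.mem_zpowers _))
  let f : normalizerIn S P ≃* R' := e.trans γ
  have hf : IsoMem F f := isoMem_trans he ((mem_autGroup_iff_isoMem hR'n.1).1 hγ)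
  have hsf : ∀ x, (f ((b ^ m) x) : Ω) = s * (f x : Ω) * s⁻¹ := by
    intro x
    have h1 := hs' (γ (e x))
    rw [MulAut.mul_apply, MulAut.mul_apply, MulAut.inv_apply_self] at h1
    have h2 : MulAut.congr e (b ^ m) (e x) = e ((b ^ m) x) :=
      congrArg (fun z => e ((b ^ m) z)) (e.symm_apply_apply x)
    rw [h2] at h1
    exact h1
  -- image of `P`
  let φ : P →* Ω := (R'.subtype.comp f.toMonoidHom).comp (Subgroup.inclusion hPN)
  have hφ : φ ∈ F.Hom P := restrict_mem hf hPN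
  have hφconj : ∀ x ∈ normalizerIn S P, ∀ (hx : x ∈ normalizerIn S P), (f ⟨x, hx⟩ : Ω) ∈ normalizerIn S φ.range := by
    intro x _ hx
    have hx' := (mem_normalizerIn_iff.1 hx).2
    refine mem_normalizerIn_iff.2 ⟨hR'n.1 (f _).2, fun y => ⟨?_, fun hy => ?_⟩⟩
    · rintro ⟨z, rfl⟩
      refine ⟨⟨_, (hx' _).1 z.2⟩, ?_⟩
      show (f (⟨x, hx⟩ * ⟨z, hPN z.2⟩ * ⟨x, hx⟩⁻¹) : Ω) = _
      rw [map_mul, map_mul, map_inv]; rfl
    · obtain ⟨z, hz⟩ := hy
      have hz' : x⁻¹ * (z : Ω) * x ∈ P := by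
        rw [hx']; simpa [mul_assoc] using z.2
      refine ⟨⟨_, hz'⟩, ?_⟩
      show (f (⟨x, hx⟩⁻¹ * ⟨z, hPN z.2⟩ * ⟨x, hx⟩) : Ω) = y
      rw [map_mul, map_mul, map_inv]
      show (f ⟨x, hx⟩ : Ω)⁻¹ * φ z * (f ⟨x, hx⟩ : Ω) = y
      rw [hz]; group
  have hle : R' ≤ normalizerIn S φ.range := by
    intro y hy
    have := hφconj _ (f.symm ⟨y, hy⟩).2 (f.symm ⟨y, hy⟩).2
    simpa using this
  have hfin2 : Finite (normalizerIn S φ.range) := finite_le inf_le_left
  have heq : R' = normalizerIn S φ.range := Subgroup.eq_of_le_of_card_ge hle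
    ((hP.2 _ ⟨φ, hφ, rfl⟩).trans (card_eq_of_isConj hR').le)
  have hsN : s ∈ normalizerIn S φ.range := by
    have hall : ∀ y ∈ φ.range, s * y * s⁻¹ ∈ φ.range := by
      rintro _ ⟨z, rfl⟩
      refine ⟨((a : MulAut P) ^ m) z, ?_⟩
      rw [show φ z = (f ⟨z, hPN z.2⟩ : Ω) from rfl, ← hsf]
      show (f ⟨_, _⟩ : Ω) = _
      exact congrArg (fun w => (f w : Ω)) (Subtype.ext (hbpow m z).symm)
    have : Finite φ.range := finite_le (hom_range_le hφ)
    refine ⟨hs, Subgroup.mem_normalizer_iff.2 fun y => ⟨hall y, fun hy => ?_⟩⟩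
    obtain ⟨⟨w, hw⟩, hw'⟩ := Finite.surjective_of_injective
      (f := fun y : φ.range => (⟨_, hall y y.2⟩ : φ.range))
      (fun u v h => Subtype.ext (mul_left_cancel (mul_right_cancel (congrArg Subtype.val h)))) ⟨_, hy⟩
    have : w = y := mul_left_cancel (mul_right_cancel (congrArg Subtype.val hw'))
    exact this ▸ hw
  rw [← heq] at hsN
  apply ham
  refine mem_autInducedBy.2 ⟨((f.symm ⟨s, hsN⟩ : normalizerIn S P) : Ω), (f.symm ⟨s, hsN⟩).2.1, fun x => ?_⟩
  rw [← hbpow m x]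
  have h1 := hsf ⟨x, hPN x.2⟩
  have h2 : f ((b ^ m) ⟨x, hPN x.2⟩) = f (f.symm ⟨s, hsN⟩ * ⟨x, hPN x.2⟩ * (f.symm ⟨s, hsN⟩)⁻¹) := by
    rw [map_mul, map_mul, map_inv, f.apply_symm_apply]; exact Subtype.ext h1
  exact congrArg Subtype.val (f.injective h2)

end Cfsg.Agent.Fus
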